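import Cfsg.Agent.H94.S460.J.J1.RTab

set_option autoImplicit false
set_option linter.all false

namespace Cfsg.Agent.H94.S460.J

open Cfsg.Agent.H35 Cfsg.Spor

theorem j1_rchk_0 : allR j1_rf 60 10 (0 * 2 ^ 10) = true := by decide +kernel

end Cfsg.Agent.H94.S460.J
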